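import Cfsg.Agent.Nodes.RGDTwCoord
import Cfsg.Agent.Nodes.ChevCls
import Cfsg.Agent.S1077
import Cfsg.Agent.ChevalleyStructure.BruhatSplit

/-!
# Representatives of `-1` invert the torus (helper287, for S4526)

`inv_tor` : `o` a word in the fundamental reflections acting as `-1` on the roots; the element `nI hp K o` inverts the
diagonal subgroup.
-/

set_option autoImplicit false
set_option linter.unusedSectionVars false

namespace Cfsg.Agent.H287.SC

open CoxeterSystem Cfsg Cfsg.Lie Cfsg.Agent.ChevalleyStructure Cfsg.Agent.ChevalleyStructure.Elts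
  Cfsg.Agent.ChevalleyStructure.CoxeterGeom Cfsg.Agent.Tits.Roots Cfsg.Agent.Tits.Core
  Cfsg.Agent.Nodes Cfsg.Agent.Nodes.RGDChev Cfsg.Agent.Nodes.RGDFold Cfsg.Agent.Nodes.RGDTwCoord

universe u

variable {D : ChevalleyDatum} {l : ℕ} {M : CoxeterMatrix (Fin l)} (hp : IsType D l M) {K : Type u} [Field K]

/-- the characters of the torus -/
theorem exists_chi {t : GL D.Idx K} (ht : t ∈ D.diagonalSubgroup K) :
    ∃ χ : ℕ → K, ∀ s < D.nroots, χ s ≠ 0 ∧ χ (D.neg s) = (χ s)⁻¹ ∧
      ∀ a, t * xG hp.inList s a * t⁻¹ = xG hp.inList s (χ s * a) := by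
  have Gd := RootComb.good_of_mem hp.inList
  obtain ⟨c, hc, e⟩ := Cfsg.Agent.S1034.result D hp.inList t ht
  have key : ∀ L : List ℕ, (∀ i ∈ L, i < D.rank) → ∃ χ : ℕ → K, ∀ s < D.nroots, χ s ≠ 0 ∧ χ (D.neg s) = (χ s)⁻¹ ∧
      ∀ a, wordG hp.inList (L.flatMap fun i => D.hWord (D.simple i) (c i)) * xG hp.inList s a *
        (wordG hp.inList (L.flatMap fun i => D.hWord (D.simple i) (c i)))⁻¹ = xG hp.inList s (χ s * a) := by
    intro L
    induction L with
    | nil =>
      intro _
      refine ⟨fun _ => 1, fun s _ => ⟨one_ne_zero, inv_one.symm, fun a => ?_⟩⟩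
      rw [List.flatMap_nil, wordG_nil, one_mul, inv_one, mul_one, one_mul]
    | cons i L ih =>
      intro hL
      obtain ⟨χ, hχ⟩ := ih fun j hj => hL j (List.mem_cons_of_mem _ hj)
      have hi := hL i List.mem_cons_self
      refine ⟨fun s => c i ^ D.cartan i s * χ s, fun s hs => ⟨?_, ?_, fun a => ?_⟩⟩
      · exact mul_ne_zero (zpow_ne_zero _ (hc i hi)) (hχ s hs).1
      · show c i ^ D.cartan i (D.neg s) * χ (D.neg s) = (c i ^ D.cartan i s * χ s)⁻¹
        rw [Gd.cartan_neg hi hs, (hχ s hs).2.1, zpow_neg, mul_inv]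
      · rw [List.flatMap_cons, wordG_append]
        have h1 : wordG hp.inList (D.hWord (D.simple i) (c i)) = hG hp.inList (D.simple i) (c i) := rfl
        rw [h1]
        set w := wordG hp.inList (L.flatMap fun i => D.hWord (D.simple i) (c i))
        have h2 : hG hp.inList (D.simple i) (c i) * w * xG hp.inList s a * (hG hp.inList (D.simple i) (c i) * w)⁻¹ =
            hG hp.inList (D.simple i) (c i) * (w * xG hp.inList s a * w⁻¹) * (hG hp.inList (D.simple i) (c i))⁻¹ := by
          group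
        rw [h2, (hχ s hs).2.2, BruhatSplit.hG_simple_conj hp.inList hi hs (hc i hi), mul_assoc]
  obtain ⟨χ, hχ⟩ := key (List.range D.rank) fun i hi => List.mem_range.1 hi
  rw [← (eq_wordG_iff hp.inList t _).2 e] at hχ
  exact ⟨χ, hχ⟩

/-- an element of `D.group K` centralising the root elements -/
theorem eq_one_of_xG {g : GL D.Idx K} (hg : g ∈ D.group K)
    (h : ∀ s < D.nroots, ∀ a, g * xG hp.inList s a = xG hp.inList s a * g) : g = 1 := by
  have h1 : (⟨g, hg⟩ : ↥(D.group K)) ∈ Subgroup.center ↥(D.group K) := by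
    rw [Subgroup.mem_center_iff]
    rintro ⟨y, hy⟩
    apply Subtype.ext
    show y * g = g * y
    have h2 : D.group K ≤ Subgroup.centralizer {g} := by
      unfold ChevalleyDatum.group
      rw [Subgroup.closure_le]
      rintro x ⟨r, t, hx⟩
      have h3 : x = xG hp.inList r t := Units.ext (by rw [coe_xG, x_of_lt r.2]; exact hx)
      rw [h3]
      exact Subgroup.mem_centralizer_singleton_iff.2 (h r r.2 t).symm
    exact Subgroup.mem_centralizer_singleton_iff.1 (h2 hy)
  rw [Cfsg.Agent.S1077.center_group_eq_bot hp.inList, Subgroup.mem_bot] at h1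
  exact congrArg Subtype.val h1

theorem nI_mem_group (o : List (Fin l)) : nI hp K o ∈ D.group K := by
  induction o with
  | nil => exact one_mem _
  | cons j o ih => rw [nI_cons]; exact mul_mem (nn_mem_group hp j) ih

theorem nI_append (o o' : List (Fin l)) : nI hp K (o ++ o') = nI hp K o * nI hp K o' := by
  unfold nI
  rw [List.map_append, List.prod_append]

/-- **a representative of `-1` inverts the torus** -/
theorem inv_tor {o : List (Fin l)} (ho : ∀ s < D.nroots, wp D o s = D.neg s) {t : GL D.Idx K}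
    (ht : t ∈ D.diagonalSubgroup K) : nI hp K o * t * (nI hp K o)⁻¹ = t⁻¹ := by
  have Gd := RootComb.good_of_mem hp.inList
  obtain ⟨χ, hχ⟩ := exists_chi hp ht
  set N := nI hp K o with hN
  have hnn : ∀ s < D.nroots, D.neg (D.neg s) = s := by
    intro s hs
    have h1 : D.neg s < D.nroots := by rw [Gd.neg_eq hs]; omega
    rw [Gd.neg_eq h1, Gd.neg_eq hs]; omega
  have hlt : ∀ s < D.nroots, D.neg s < D.nroots := fun s hs => by rw [Gd.neg_eq hs]; omega
  have htG : t ∈ D.group K := diagonal_le_group hp.inList K ht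
  have hg : N * t * N⁻¹ * t ∈ D.group K :=
    mul_mem (mul_mem (mul_mem (nI_mem_group hp o) htG) (inv_mem (nI_mem_group hp o))) htG
  have h1 : N * t * N⁻¹ * t = 1 := by
    refine eq_one_of_xG hp hg ?_
    intro s hs a
    obtain ⟨η, hη, h2⟩ := conj_xG (hp := hp) (K := K) o (hlt s hs)
    rw [ho _ (hlt s hs), hnn s hs, ← hN] at h2
    have hη2 : η * η = 1 := hη.mul_self
    -- the action of `N⁻¹`
    have h3 : ∀ b, N⁻¹ * xG hp.inList s b * N = xG hp.inList (D.neg s) (η * b) := by
      intro b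
      have h4 := h2 (η * b)
      rw [← mul_assoc, hη2, one_mul] at h4
      rw [← h4]; group
    have h5 := (hχ s hs).2.2
    have h6 := (hχ _ (hlt s hs)).2.2
    have h7 : N * t * N⁻¹ * t * xG hp.inList s a * (N * t * N⁻¹ * t)⁻¹ = xG hp.inList s a := by
      have e1 : N * t * N⁻¹ * t * xG hp.inList s a * (N * t * N⁻¹ * t)⁻¹ =
          N * (t * (N⁻¹ * (t * xG hp.inList s a * t⁻¹) * N) * t⁻¹) * N⁻¹ := by group
      rw [e1, h5, h3, h6, h2]
      congr 1
      rw [(hχ s hs).2.1]
      have h8 := (hχ s hs).1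
      field_simp
      rw [pow_two, hη2, one_mul]
    exact mul_inv_eq_iff_eq_mul.1 h7
  rw [mul_eq_one_iff_eq_inv] at h1
  exact h1

end Cfsg.Agent.H287.SC
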